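import Cfsg.Agent.Lib.MRec.Two
import Cfsg.Agent.Lib.Co2.FinCls

/-! An element of the Monster whose square is a short involution is a product of two short involutions. -/

set_option autoImplicit false
open Cfsg Subgroup H95 H16 H7.ML H95.Gr H31.MT
open scoped symmDiff

namespace H71.KS

variable {O : Finset GolayPt}

/-- the class of `v` is short up to a vector supported on `O` -/
def Ok (O : Finset GolayPt) (v : leechLattice) : Prop :=
  ∃ w u : leechLattice, Sup O w ∧ Cg (w + v) u ∧ sqNorm (u : GolayPt → ℤ) = 32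

theorem Ok.of {v v' a : leechLattice} (h : Ok O v') (ha : Sup O a) (c : Cg (a + v) v') : Ok O v := by
  obtain ⟨w, u, a1, a2, a3⟩ := h
  exact ⟨w + a, u, a1.add ha, by rw [add_assoc]; exact ((Cg.refl w).add c).trans a2, a3⟩

theorem Ok.step (hO : O ∈ code) {v : leechLattice} (l : leechLattice) (h : Ok O (v + (eps O hO • l + l))) :
    Ok O v :=
  h.of (sup_eps_sub hO l) (cg_iff.2 ⟨l, by abel⟩ : Cg (v + (eps O hO • l + l)) _).symm

theorem ok_of (hO : O ∈ octads) {v : leechLattice} {c : Finset GolayPt} (hc : c ∈ code) {n : GolayPt → ℤ}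
    (h1 : ∀ k ∈ O, n k = (v : GolayPt → ℤ) k)
    (h2 : ∀ k, k ∉ O → (8 : ℤ) ∣ n k - (v : GolayPt → ℤ) k - 4 * ind c k) (hn : sqNorm n = 32) : Ok O v := by
  obtain ⟨o, ho⟩ := exists_mem hO
  let f := res Oᶜ fun k => (n k - (v : GolayPt → ℤ) k) / 2 - 2 * ind c k
  have h4 : ∀ k, (4 : ℤ) ∣ f k := fun k => by
    simp only [f, res_apply, Finset.mem_compl]
    split_ifs with h
    · exact dvd_zero _
    · have := h2 k h
      omega
  let l : leechLattice := ⟨f - Pi.single o (∑ k, f k), mem_leech_of_four_dvd (fun k => by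
    refine dvd_sub (h4 k) ?_
    rw [Pi.single_apply]
    split_ifs
    exacts [Finset.dvd_sum fun k _ => h4 k, dvd_zero _]) (by simp)⟩
  refine Ok.step hO.1 (lrep c hc + l) ⟨0, _, fun _ _ => rfl, by rw [zero_add]; exact Cg.refl _, ?_⟩
  rw [← hn]
  congr 1
  funext k
  simp only [AddSubgroup.coe_add, Pi.add_apply, eps_smul_apply, lrep_apply, l, f, Pi.sub_apply, res_apply,
    Finset.mem_compl]
  by_cases h : k ∈ O
  · simp [h, h1 k h]
  · have := h2 k h
    rw [Pi.single_eq_of_ne (show k ≠ o from fun e => h (e ▸ ho))]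
    simp only [h, ind_apply, if_false, not_false_eq_true, if_true] at this ⊢
    split_ifs at this ⊢ <;> omega

theorem ok_oct (hO : O ∈ octads) {v : leechLattice} {c : Finset GolayPt} (hc : c ∈ octads) (h : Cong v 0 c)
    (h2 : (O ∩ c).card = 2) (h1 : ∀ k ∈ O, (v : GolayPt → ℤ) k ^ 2 = 4 * ind c k) : Ok O v := by
  classical
  obtain ⟨i, hi⟩ := Finset.card_pos.1 (show 0 < (O ∩ c).card by omega)
  have hD : (O ∆ c)ᶜ ∈ dodecads := H15.compl_mem_dodecads ⟨symmDiff_mem_code hO.1 hc.1, by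
    have := card_symmDiff_add O c
    have := hO.2
    have := hc.2
    show (O ∆ c).card = 12
    omega⟩
  obtain ⟨d, hd, e⟩ := exists_code_inter_eq (O ∪ c)ᶜ ((O ∪ c)ᶜ.filter fun k => ¬ (8 : ℤ) ∣ (v : GolayPt → ℤ) k)
    (Finset.filter_subset _ _) fun d hd s => by
      rcases dod_sub hD hd (fun k hk => by have := s hk; simp_all [Finset.mem_symmDiff]) with rfl | rfl
      · simp
      · have := @s i
        simp_all [Finset.mem_symmDiff]
  refine ok_of hO hd (n := fun k => if k ∈ O then (v : GolayPt → ℤ) k else if k ∈ c then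
    if (8 : ℤ) ∣ (v : GolayPt → ℤ) k + 4 * ind d k - 2 then 2 else -2 else 0) (fun k hk => if_pos hk)
    (fun k hk => ?_) ?_
  · have a := h.1 k
    have b := Finset.ext_iff.1 e k
    simp only [hk, ind_apply, if_false, Finset.mem_inter, Finset.mem_filter, Finset.mem_compl, Finset.mem_union,
      false_or] at a b ⊢
    by_cases x : k ∈ c <;> by_cases y : k ∈ d <;> simp only [x, y, if_true, if_false] at a b ⊢
    · split_ifs <;> omega
    · split_ifs <;> omega
    · have : ¬ (8 : ℤ) ∣ (v : GolayPt → ℤ) k := by tauto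
      omega
    · have : (8 : ℤ) ∣ (v : GolayPt → ℤ) k := by tauto
      omega
  · rw [sqNorm_def, Finset.sum_congr rfl (g := fun k => 4 * ind c k) fun k _ => ?_, ← Finset.mul_sum, sum_ind, hc.2]
    · rfl
    · split_ifs with a b
      · exact h1 k a
      all_goals simp [ind_apply, b]

theorem ok_v44 (hO : O ∈ octads) {v r : leechLattice} (h : Cg (eps O hO.1 • v + v) r) {i j : GolayPt} (ij : i ≠ j)
    {s t : ℤ} (hs : s = 1 ∨ s = -1) (ht : t = 1 ∨ t = -1) (e : (r : GolayPt → ℤ) = v44 i j s t) : Ok O v := by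
  obtain ⟨u, hu⟩ := exists_of_cg h
  simp only [AddSubgroup.coe_add, Pi.add_apply, eps_smul_apply, e, v44_apply] at hu
  have o8 : O.card = 8 := hO.2
  have ev : ∀ (a : leechLattice) (k : GolayPt), (2 : ℤ) ∣ (a : GolayPt → ℤ) k → ∃ c ∈ code, Cong a 0 c :=
    fun a k hk => ((mem_leech_iff' _).1 a.2).resolve_right fun ⟨c, _, f⟩ => by have := f.1 k; omega
  obtain ⟨p, hp⟩ := exists_notMem hO
  obtain ⟨q, hq⟩ := exists_mem hO
  obtain ⟨c, hc, f⟩ := ev (v - u) p (by
    have := hu p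
    simp only [AddSubgroup.coe_sub, Pi.sub_apply, hp, if_false] at this ⊢
    split_ifs at this <;> omega)
  have m : ∀ k, k ∉ O → (k ∈ c ↔ k = i ∨ k = j) := fun k hk => by
    have a := hu k
    have b := f.1 k
    simp only [AddSubgroup.coe_sub, Pi.sub_apply, hk, if_false, ind_apply] at a b
    split_ifs at a b with x y <;> first | omega | tauto | exact (ij (x.symm.trans y)).elim
  have cO : c ⊆ O := by
    have a := Finset.card_le_card (show c ⊆ (c ∩ O) ∪ {i, j} from fun k hk => by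
      have := m k
      simp only [Finset.mem_union, Finset.mem_inter, Finset.mem_insert, Finset.mem_singleton]
      tauto)
    have b := Finset.card_union_le (c ∩ O) {i, j}
    have b' := Finset.card_le_card (Finset.inter_subset_right (s₁ := c) (s₂ := O))
    have d := card_symmDiff_add c O
    have := card_of_mem_code hc
    have := card_of_mem_code (symmDiff_mem_code hc hO.1)
    rw [Finset.card_pair ij] at b
    by_cases z : c.card = 0
    · simp [Finset.card_eq_zero.1 z]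
    · exact (symmDiff_eq_bot.1 (Finset.card_eq_zero.1 (by omega))).le
  have hi : i ∈ O := by_contra fun n => n (cO ((m i n).2 (.inl rfl)))
  have hj : j ∈ O := by_contra fun n => n (cO ((m j n).2 (.inr rfl)))
  refine Ok.of (v' := u) ?_ (a := u - v) (fun k hk => ?_) (by rw [sub_add_cancel]; exact Cg.refl _)
  swap
  · have a := hu k
    simp only [AddSubgroup.coe_sub, Pi.sub_apply, hk, if_false, show k ≠ i from fun e => hk (e ▸ hi),
      show k ≠ j from fun e => hk (e ▸ hj)] at a ⊢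
    omega
  obtain ⟨d, hd, g⟩ := ev u q (by
    have := hu q
    simp only [hq, if_true] at this
    split_ifs at this <;> omega)
  have n : ∀ k ∈ O, (k ∈ d ↔ k = i ∨ k = j) ∧ (u : GolayPt → ℤ) k ^ 2 = 4 * ind d k := fun k hk => by
    have a := hu k
    have b := g.1 k
    simp only [hk, if_true, ind_apply] at a b ⊢
    have : ∀ x : ℤ, x = 2 ∨ x = -2 → x ^ 2 = 4 * 1 := by rintro _ (rfl | rfl) <;> rfl
    have ij' : ¬ (k = i ∧ k = j) := fun x => ij (x.1.symm.trans x.2)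
    split_ifs at a b ⊢ <;> first | omega | exact ⟨by tauto, this _ (by omega)⟩ | tauto |
      exact ⟨by tauto, by rw [show (u : GolayPt → ℤ) k = 0 by omega]; rfl⟩
  have c2 : ∀ d : Finset GolayPt, (∀ k ∈ O, (k ∈ d ↔ k = i ∨ k = j)) → (O ∩ d).card = 2 := fun d a => by
    rw [← Finset.card_pair ij]
    congr 1
    ext k
    have := a k
    simp only [Finset.mem_inter, Finset.mem_insert, Finset.mem_singleton]
    exact ⟨fun x => (a k x.1).1 x.2, fun x => have y : k ∈ O := x.elim (· ▸ hi) (· ▸ hj); ⟨y, (a k y).2 x⟩⟩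
  have a1 := c2 d fun k hk => (n k hk).1
  have a2 := card_symmDiff_add O d
  have a3 := card_of_mem_code hd
  have a4 := card_of_mem_code (symmDiff_mem_code hO.1 hd)
  by_cases d8 : d.card = 8
  · exact ok_oct hO ⟨hd, d8⟩ g a1 fun k hk => (n k hk).2
  have g' := g.add (((cong_odd3 none).sgn_one hO.1 empty_mem_code).add (cong_odd3 none) |>.shift_compl (n := 0)
    (by norm_num))
  simp only [← Finset.bot_eq_empty, symmDiff_bot, add_zero] at g'
  have m' : ∀ k ∈ O, (k ∈ d ∆ Oᶜ ↔ k ∈ d) := fun k hk => by simp [Finset.mem_symmDiff, hk]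
  have a5 := c2 (d ∆ Oᶜ) fun k hk => (m' k hk).trans (n k hk).1
  refine Ok.step hO.1 ⟨_, (cong_odd3 none).mem empty_mem_code⟩ (ok_oct hO (c := d ∆ Oᶜ)
    ⟨symmDiff_mem_code hd (compl_mem_code hO.1), ?_⟩ ?_ a5 fun k hk => ?_)
  · have b1 := card_symmDiff_add d Oᶜ
    have b2 := Finset.card_inter_add_card_sdiff d O
    rw [card_compl_octad hO, ← Finset.sdiff_eq_inter_compl] at b1
    rw [Finset.inter_comm] at b2
    show (d ∆ Oᶜ).card = 8
    omega
  · rwa [AddSubgroup.coe_add, AddSubgroup.coe_add, coe_eps_smul]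
  · simp only [AddSubgroup.coe_add, Pi.add_apply, eps_smul_apply, hk, if_true, neg_add_cancel, add_zero,
      (n k hk).2, ind_apply, m' k hk]

theorem dod_oct {D : Finset GolayPt} (hD : D ∈ dodecads) {v t r : leechLattice} {i j : GolayPt} (ij : i ≠ j)
    (hr : ∀ p, (r : GolayPt → ℤ) p = if p = i then 4 else if p = j then -4 else 0)
    (ht : ∀ i, (8 : ℤ) ∣ (t : GolayPt → ℤ) i) (h : Cg (eps D hD.1 • v + t + v) r) (hi : i ∉ D)
    (hj : j ∉ D) : ∃ d ∈ code, Cong v 0 d ∧ (d.card = 8 ∨ d.card = 16) := by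
  obtain ⟨u, hu⟩ := exists_of_cg h
  simp only [AddSubgroup.coe_add, Pi.add_apply, eps_smul_apply, hr] at hu
  have a1 : ∀ k ∈ D, (4 : ℤ) ∣ (u : GolayPt → ℤ) k := fun k a => by
    have x := hu k
    have := ht k
    rw [if_pos a, if_neg (show k ≠ i from fun e => hi (e ▸ a)), if_neg (show k ≠ j from fun e => hj (e ▸ a))] at x
    omega
  have hD' := H15.compl_mem_dodecads hD
  have d1 : D.card = 12 := hD.2
  have d2 : Dᶜ.card = 12 := hD'.2
  obtain ⟨p, hp⟩ := Finset.card_pos.1 (show 0 < D.card by omega)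
  rcases (mem_leech_iff' _).1 u.2 with ⟨c, hc, e⟩ | ⟨c, hc, e⟩
  swap
  · have := e.1 p
    have := a1 p hp
    omega
  rcases (mem_leech_iff' _).1 v.2 with ⟨d, hd, f⟩ | ⟨d, hd, f⟩
  swap
  · have := e.1 i
    have := f.1 i
    have := ht i
    have := hu i
    rw [if_neg hi, if_pos rfl] at this
    omega
  refine ⟨d, hd, f, ?_⟩
  have b1 := dod_sub hD' hc fun k hk => Finset.mem_compl.2 fun n => by
    have := e.1 k
    have := a1 k n
    rw [ind_of_mem hk] at *
    omega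
  have b2 : (c ∆ d) ∩ Dᶜ = {i, j} := Finset.ext fun k => by
    have a := e.1 k
    have b := f.1 k
    have := ht k
    have x := hu k
    rw [Finset.mem_inter, Finset.mem_symmDiff, Finset.mem_compl, Finset.mem_insert, Finset.mem_singleton]
    rw [ind_apply] at a b
    by_cases n : k ∈ D
    · exact ⟨fun y => (y.2 n).elim, fun y => (y.elim (fun e => hi (e ▸ n)) fun e => hj (e ▸ n)).elim⟩
    rw [if_neg n] at x
    split_ifs at a b x <;> first | omega | tauto
  have b3 := card_symmDiff_add (c ∆ d) Dᶜ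
  have b4 := card_symmDiff_add (c ∆ d) D
  have b5 := Finset.card_inter_add_card_sdiff (c ∆ d) D
  have b6 := card_of_mem_code (symmDiff_mem_code hc hd)
  have b7 := card_of_mem_code (symmDiff_mem_code (symmDiff_mem_code hc hd) hD.1)
  have b8 := card_of_mem_code (symmDiff_mem_code (symmDiff_mem_code hc hd) hD'.1)
  rw [Finset.sdiff_eq_inter_compl] at b5
  rw [b2, Finset.card_pair ij] at b3 b5
  have b0 := Finset.card_le_card (Finset.inter_subset_right (s₁ := c ∆ d) (s₂ := D))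
  have b9 : (c ∆ d).card = 8 := by omega
  rcases b1 with rfl | rfl
  · exact .inl (by simpa only [← Finset.bot_eq_empty, bot_symmDiff] using b9)
  · rw [b9, symmDiff_comm _ d, symmDiff_symmDiff_cancel_right] at b3
    omega

section Model
variable {g : GG} {φ : centralizer ({zA} : Set GG) →* Spor.Co1} {cl : leechLattice → GG → Prop}
  (S : St zA (g * zA * g⁻¹) (QQ ℝ) ((QQ ℝ).map (MulAut.conj g).toMonoidHom) φ cl)
include S

theorem prod_oct (hO : O ∈ octads) (x : centralizer ({zA} : Set GG))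
    (h : (QuotientGroup.mk (eps O hO.1) : Spor.Co1) = φ x) (i : IX (x * x)) (m : x.1 * x ∈ QQ ℝ)
    (m' : x.1 * x ∈ (QQ ℝ).map (MulAut.conj g).toMonoidHom) : ∃ a b, IX a ∧ IX b ∧ x = a * b := by
  obtain ⟨τ, t, hτ, ht, y, e, hy, yQ, yy, -, -, py, -⟩ := S.exists_y hO
  have iy : IX y := e ▸ (ix_of_cls S ht (Cg.refl _) (by
    rw [show ((lrep O hO.1 : leechLattice) : GolayPt → ℤ) = rep 0 O from rfl, sqNorm_rep_zero, hO.2]; rfl)).conj τ
  obtain ⟨v, hv⟩ := S.M.ex_cls (y * x) ((S.M.ker (⟨y, AA_le _ _ hy⟩ * x)).1 (by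
    rw [map_mul, ← py, ← h, ← QuotientGroup.mk_mul, eps_mul_self, QuotientGroup.mk_one]))
  obtain ⟨r, hr, nr⟩ := S.M.type_of_invol m i.ne_one (fun a => not_iz i (by rw [a]; exact iz_z)) i.sq
  replace nr := nr.resolve_right fun a => not_iz i ((S.isConj_iff hr (Or.inr a)).2 a)
  have f : Cg (eps O hO.1 • v + v) r := cg_of_cls S.M (by
    convert S.M.add (S.M.smul ⟨y, AA_le _ _ hy⟩ _ py hv) hv using 1
    rw [← mul_assoc y y, yy, one_mul, mul_assoc, inv_mul_cancel_left]) hr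
  obtain ⟨w, u, a1, a2, a3⟩ : Ok O v := by
    rcases min_shape r.2 nr with ⟨i, j, ij, s, t, hs, ht, e⟩ | ⟨o, ho, s, hs, h2, e⟩ | ⟨c, -, j, e⟩
    · exact ok_v44 hO f ij hs ht e
    · have := ho.2
      rcases (H74.Co1.mk1_eps_eq_one ho.1).1 ((S.tw hτ hr ho.1 (e ▸ cong_oct ho.1 hs h2)).trans ((S.M.ker _).2
        (Tau.memQ' S.pair.symm ⟨sup_comm (QQ ℝ) _ ▸ hτ.mem, hτ.sz, hτ.zs⟩ m'))) with rfl | rfl <;> simp at this
    · have := (S.M.commute_iff hr S.hs).1 (S.pair.h'.central _ m')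
      rw [dotInt_comm, coe_e8, dotInt_single_left, e, odd_apply] at this
      split_ifs at this <;> omega
  obtain ⟨p, hp, ip⟩ : ∃ p, cl w p ∧ IX (y * p) := by
    obtain ⟨p, hp⟩ := S.M.ex_elt w
    obtain ⟨q, -, a | a⟩ := S.exists_conj_out hO hy (mul_mem hy (mem_AA_of_sup S.M hO hp a1)) yQ
      fun n => yQ ((mul_mem_cancel_right (S.M.mem hp)).1 n)
    · exact ⟨p, hp, a ▸ iy.conj q⟩
    · exact ⟨_, S.M.mul_z hp, by rw [← mul_assoc, ← a]; exact iy.conj q⟩
  exact ⟨_, _, ip, ix_of_cls S (S.M.add hp hv) a2 a3, by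
    rw [mul_assoc, ← mul_assoc p, S.sq_AA hO (mem_AA_of_sup S.M hO hp a1), one_mul, ← mul_assoc, yy, one_mul]⟩

theorem prod_code {c : Finset GolayPt} (hc : c ∈ code) (n : c.card = 8 ∨ c.card = 16)
    (x : centralizer ({zA} : Set GG)) (h : (QuotientGroup.mk (eps c hc) : Spor.Co1) = φ x) (i : IX (x * x))
    (m : x.1 * x ∈ QQ ℝ ⊓ (QQ ℝ).map (MulAut.conj g).toMonoidHom) : ∃ a b, IX a ∧ IX b ∧ x = a * b :=
  n.elim (fun n => prod_oct S ⟨hc, n⟩ x h i m.1 m.2) fun n => prod_oct S ⟨compl_mem_code hc, by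
    rw [Finset.card_compl, n]; rfl⟩ x ((H74.Co1.mk1_eps_compl hc).trans h) i m.1 m.2

omit S in
theorem prod_cj (k : GG) {x : GG} (h : ∃ a b, IX a ∧ IX b ∧ k * x * k⁻¹ = a * b) : ∃ a b, IX a ∧ IX b ∧ x = a * b := by
  obtain ⟨a, b, h1, h2, e⟩ := h
  exact ⟨_, _, h1.conj k⁻¹, h2.conj k⁻¹, by rw [← map_mul, ← e]; exact (cj_cj k x).symm⟩

theorem prod_cent (x : centralizer ({zA} : Set GG)) (i : IX (x * x)) (m : x.1 * x ∈ QQ ℝ) :
    ∃ a b, IX a ∧ IX b ∧ x = a * b := by
  obtain ⟨r, hr, nr⟩ := S.M.type_of_invol m i.ne_one (fun a => not_iz i (by rw [a]; exact iz_z)) i.sq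
  replace nr := nr.resolve_right fun a => not_iz i ((S.isConj_iff hr (Or.inr a)).2 a)
  obtain ⟨γ, h, f⟩ : ∃ γ : Co0, (QuotientGroup.mk γ : Spor.Co1) = φ x ∧ γ • r = r := by
    obtain ⟨γ, h⟩ := QuotientGroup.mk_surjective (φ x)
    rcases (cg_of_cls S.M (S.M.smul x γ h hr) (by rwa [mul_assoc, mul_assoc, mul_inv_cancel, mul_one])).short
      (by rw [sqNorm_co0]; omega) (by omega) with a | a | a
    · exact ⟨γ, h, a⟩
    · exact ⟨negCo0 * γ, (mk1_neg γ).trans h, by rw [mul_smul, a, negCo0_smul, neg_neg]⟩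
    · omega
  have h2 : γ * γ = 1 := ((mem_center_iff _).1 ((QuotientGroup.eq_one_iff _).1 (by
    rw [QuotientGroup.mk_mul, h, ← map_mul]; exact (S.M.ker _).2 m))).resolve_right fun e =>
      ne_neg_of_norm (y := r) (by omega) (by rw [← negCo0_smul, ← e, mul_smul, f, f])
  obtain ⟨δ, hδ⟩ := min_trans (x := r) (y := vUP) nr norm_UP
  obtain ⟨κ, hκ, c, hc, e⟩ := H12.Co2.cls_eps (x := δ * γ * δ⁻¹) (by
    show _ • _ = _
    rw [← hδ, mul_smul, inv_smul_smul, mul_smul, f]) (by rw [conj_mul, h2]; group)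
  obtain ⟨n0, n1⟩ := (H12.Co2.eps_mem_stab hc).1 (e ▸ mul_mem (mul_mem hκ (by
    show _ • _ = _
    rw [← hδ, mul_smul, inv_smul_smul, mul_smul, f])) (inv_mem hκ))
  obtain ⟨k, hk⟩ := S.M.exists_lift (κ * δ)
  refine prod_cj k ?_
  change ∃ a b, _ ∧ _ ∧ ((k * x * k⁻¹ : centralizer _) : GG) = _
  replace h : (QuotientGroup.mk (eps c hc) : Spor.Co1) = φ (k * x * k⁻¹) := by
    rw [map_mul, map_mul, map_inv, ← h, ← hk, ← e, ← QuotientGroup.mk_inv, ← QuotientGroup.mk_mul,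
      ← QuotientGroup.mk_mul]
    exact congrArg _ (by group)
  replace hr := S.M.smul k _ hk hr
  replace i : IX (k * (x * x) * k.1⁻¹) := i.conj k
  rw [mul_smul, hδ, show κ • vUP = vUP from hκ] at hr
  rw [← conj_mul] at hr i
  change cl _ (((k * x * k⁻¹ : centralizer _) : GG) * (k * x * k⁻¹ : centralizer _)) at hr
  change IX (((k * x * k⁻¹ : centralizer _) : GG) * (k * x * k⁻¹ : centralizer _)) at i
  generalize k * x * k⁻¹ = x at h hr i
  have mE := S.mem_E_of_cong hr ⟨fun p => by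
    rw [H12.Co2.UP_apply, ind_of_notMem (Finset.notMem_empty _)]; split_ifs <;> norm_num, by decide⟩
  rcases card_of_mem_code hc with n | n | n | n | n
  · rcases S.M.h.sq_mem ((S.M.ker x).1 (h.symm.trans ((H74.Co1.mk1_eps_eq_one hc).2
      (Or.inl (Finset.card_eq_zero.1 n))))) with a | a
    exacts [absurd a i.ne_one, (not_iz i (by rw [a]; exact iz_z)).elim]
  · exact prod_code S hc (.inl n) x h i mE
  swap
  · exact prod_code S hc (.inr n) x h i mE
  swap
  · exact (n0 (Finset.eq_univ_of_card _ n ▸ Finset.mem_univ _)).elim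
  obtain ⟨b, hb, e⟩ := S.lift_eps hc
  obtain ⟨v, hv⟩ := S.M.ex_cls _ ((S.M.ker (b⁻¹ * x)).1 (by rw [map_mul, map_inv, ← e, ← h, inv_mul_cancel]))
  obtain ⟨t, ht, ct⟩ : ∃ t : leechLattice, (∀ i, (8 : ℤ) ∣ (t : GolayPt → ℤ) i) ∧ cl t (b * b) := by
    rcases S.pair.h'.sq_mem hb with a | a <;> rw [a]
    · exact ⟨0, fun _ => dvd_zero _, S.M.cls_zero⟩
    · exact ⟨_, fun i => by rw [e8_apply]; split_ifs <;> norm_num, S.hs⟩
  obtain ⟨d, hd, f, n⟩ := dod_oct ⟨hc, n⟩ (by decide) H12.Co2.UP_apply ht (cg_of_cls S.M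
    (S.M.add (S.M.add (S.M.smul b _ e hv) ct) hv) (by convert hr using 1; simp [mul_assoc])) n1 n0
  obtain ⟨τ, hτ⟩ := exists_tau S.pair
  have q := Tau.memQ' S.pair.symm ⟨sup_comm (QQ ℝ) _ ▸ hτ.mem, hτ.sz, hτ.zs⟩ hb
  have w := S.tw hτ hv hd f
  have y : τ * x * τ⁻¹ = τ * b * τ⁻¹ * (τ * (b⁻¹ * x : centralizer _) * τ⁻¹) := by simp [mul_assoc]
  refine prod_cj τ (y ▸ prod_code S hd n (⟨_, S.M.h.le_centralizer q⟩ * ⟨_, _⟩)
    (by rw [map_mul, (S.M.ker _).2 q, one_mul]; exact w) ?_ ?_)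
  · convert i.conj τ using 1
    simp [mul_assoc]
  · convert S.pair.conj_mem_E hτ.mem mE using 1
    simp [mul_assoc]

end Model

theorem prod_of_sq {u : GG} (i : IX (u * u)) : ∃ a b, IX a ∧ IX b ∧ u = a * b := by
  classical
  obtain ⟨g, a, b⟩ := exists_conj_z (F := ℝ)
  obtain ⟨φ, cl, S⟩ := exists_std mon a b
  have := Fintype.ofFinite {w // IZ w ∧ InQ w (u * u)}
  have := Fact.mk Nat.prime_two
  have e : cj u (u * u) = u * u := by simp [mul_assoc]
  obtain ⟨⟨w, hw, h⟩, f⟩ := Equiv.Perm.exists_fixed_point_of_prime (p := 2) (n := 2)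
    (σ := Equiv.Perm.subtypePerm (p := fun w => IZ w ∧ InQ w (u * u)) (cj u).toEquiv fun w =>
      and_congr iz_cj (Iff.trans (by rw [e]; rfl) (inQ_cj (g := u))))
    (by rw [← Nat.card_eq_fintype_card, ← Set.coe_setOf, Nat.card_coe_set_eq, sys_top.ncard_W i]; norm_num)
    (Equiv.ext fun w => Subtype.ext (by
      show cj u (cj u (cj u (cj u w))) = w
      rw [← cj_mul, ← cj_mul, ← cj_mul, mul_assoc (u * u), i.sq]; simp))
  obtain ⟨k, rfl⟩ := hw.ex
  have f' : cj u (cj k zA) = cj k zA := congrArg Subtype.val f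
  refine prod_cj k⁻¹ (prod_cent S.st ⟨cj k⁻¹ u, mem_cent_iff.2 ?_⟩ (map_mul (cj k⁻¹) u u ▸ i.conj _)
    (map_mul (cj k⁻¹) u u ▸ inQ_z.1 (cj_cj k zA ▸ h.conj k⁻¹)))
  conv_lhs => rw [← cj_cj k zA, ← map_mul, mul_inv_eq_iff_eq_mul.1 f', map_mul, cj_cj]

end H71.KS
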