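import Cfsg.Agent.Lib.KSp.BabP

/-! Uniqueness of the factorisation of an element of order four into two short involutions. -/

set_option autoImplicit false
open Cfsg Subgroup H95 H95.Gr

namespace H71.KS

variable {t x y a b s u h : GG}

theorem not_inQ (ht : IX t) (e : (x * y) ^ 2 = t) (h1 : InQ s x) (h2 : InQ s y) : False := by
  rcases (h1.mul h2).sq with f | f <;> rw [← pow_two, e] at f
  exacts [ht.ne_one f, not_iz ht (f ▸ h1.iz)]

theorem pow_D (ht : IX t) (hx : InD t x) (hy : InD t y) : (x * y) ^ 4 = 1 ∨ (x * y) ^ 6 = 1 := by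
  have q : ∀ v : GG, v * v = 1 → v ^ 4 = 1 := fun v e => by rw [show 4 = 2 * 2 from rfl, pow_mul, pow_two v, e, one_pow]
  have c : Commute t (x * y) := Commute.mul_right (hx.comm ht) (hy.comm ht)
  rcases classify ht hx hy with ⟨e, -⟩ | ⟨e, -⟩ | ⟨e, -⟩ | ⟨e, -⟩ | ⟨e, -⟩ | ⟨e, -⟩ | ⟨e, -⟩ | ⟨e, -⟩
  · exact .inl (q _ (by rw [e, hx.1.sq, one_mul]))
  · exact .inl (q _ (by rw [e, hx.comm ht, ← mul_assoc x, hx.1.sq, one_mul, ht.sq]))
  · exact .inl (q _ e.sq)
  · exact .inl (q _ (by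
      have := e.sq
      rwa [mul_assoc t x y, ← pow_two, c.mul_pow, pow_two t, ht.sq, one_mul, pow_two] at this))
  · exact .inl (by rw [show 4 = 2 * 2 from rfl, pow_mul, e, pow_two, ht.sq])
  · exact .inr (by rw [show 6 = 3 * 2 from rfl, pow_mul, e, one_pow])
  · exact .inr (by rw [show 6 = 3 * 2 from rfl, pow_mul, e, pow_two, ht.sq])
  · exact .inl (by rw [show 4 = 2 * 2 from rfl, pow_mul, pow_two _, e.sq])

theorem ff64 (ht : IX t) (hx : InD t x) (hy : InD t y) (e : (x * y) ^ 2 = t) : FF x y = 1 / 64 := by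
  have n := ne_comm_of_sq hx.1 hy.1 (e ▸ ht.ne_one)
  have k : ∀ v : GG, v ^ 2 = t → v ^ 6 ≠ 1 := fun v e f => ht.ne_one (by
    rwa [show 6 = 2 * 3 from rfl, pow_mul, e, pow_succ, pow_two, ht.sq, one_mul] at f)
  rcases classify ht hx hy with ⟨f, -⟩ | ⟨f, -⟩ | ⟨f, -⟩ | ⟨f, -⟩ | ⟨-, f, -⟩ | ⟨f, -⟩ | ⟨f, -⟩ | ⟨f, -⟩
  · exact (n (by rw [f])).elim
  · exact (n (by rw [f, ← mul_assoc, ← hx.comm ht])).elim
  · exact (n (comm_of_sq hx.1 hy.1 f.sq)).elim
  · have := comm_of_sq hx.2 hy.1 f.sq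
    rw [← mul_assoc, ← hy.comm ht, mul_assoc, mul_assoc, mul_right_inj] at this
    exact (n this).elim
  · exact f
  · exact (k _ e (by rw [show 6 = 3 * 2 from rfl, pow_mul, f, one_pow])).elim
  · exact (k _ e (by rw [show 6 = 3 * 2 from rfl, pow_mul, f, pow_two, ht.sq])).elim
  · exact (not_iz ht (e ▸ f)).elim

/-- the relation excluded in the factorisation lemma -/
def NZ (t x a : GG) : Prop := ¬ IZ (x * a) ∧ ¬ IZ (t * x * a) ∧ ¬ IZ ((x * a) ^ 2)

theorem comm_inv (hx : IX x) (ha : IX a) (hb : IX b) (i : x * (a * b) * x = b * a) : Commute (x * a) (a * b) := by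
  show _ = _
  rw [mul_assoc, ← mul_assoc a, ha.sq, one_mul, ← mul_right_inj x, ← mul_assoc, ← mul_assoc, ← mul_assoc, i, hx.sq,
    one_mul, mul_assoc, ha.sq, mul_one]

theorem fac0 (ht : IX t) (hx : InD t x) (ha : InD t a) (hb : InD t b) (e : (a * b) ^ 2 = t)
    (i : x * (a * b) * x = b * a) (n : NZ t x a) : a = x ∨ a = t * x ∨ (x * a) ^ 2 = t := by
  have c := comm_inv hx.1 ha.1 hb.1 i
  have v : x * b = x * a * (a * b) := by rw [mul_assoc, ← mul_assoc a, ha.1.sq, one_mul]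
  have k : (x * a) ^ 6 = 1 → (x * a) ^ 4 = 1 := fun f => by
    rcases pow_D ht hx hb with g | g <;> rw [v, c.mul_pow] at g
    · rwa [show 4 = 2 * 2 from rfl, pow_mul (a * b), e, pow_two t, ht.sq, mul_one] at g
    · rw [f, one_mul, show 6 = 2 * 3 from rfl, pow_mul, e, pow_succ, pow_two, ht.sq, one_mul] at g
      exact absurd g ht.ne_one
  rcases classify ht hx ha with ⟨f, -⟩ | ⟨f, -⟩ | ⟨f, -⟩ | ⟨f, -⟩ | ⟨f, -⟩ | ⟨f, -⟩ | ⟨f, -⟩ | ⟨f, -⟩
  · exact .inl f
  · exact .inr (.inl f)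
  · exact (n.1 f).elim
  · exact (n.2.1 f).elim
  · exact .inr (.inr f)
  · have := k (by rw [show 6 = 3 * 2 from rfl, pow_mul, f, one_pow])
    rw [pow_succ, f, one_mul] at this
    exact .inl ((eq_inv_of_mul_eq_one_right this).trans hx.1.inv)
  · have := k (by rw [show 6 = 3 * 2 from rfl, pow_mul, f, pow_two, ht.sq])
    rw [pow_succ, f, ← mul_assoc] at this
    exact .inr (.inl ((eq_inv_of_mul_eq_one_right this).trans hx.2.inv))
  · exact (n.2.2 f).elim

theorem swap_D (ht : IX t) (ha : InD t a) (hb : InD t b) (e : (a * b) ^ 2 = t) : b * (t * a) = a * b := by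
  rw [← mul_assoc, ← hb.comm ht, ← e, pow_two, mul_assoc, mul_assoc, mul_assoc a b (b * a), ← mul_assoc b b,
    hb.1.sq, one_mul, ha.1.sq, mul_one]

theorem fac1 (ht : IX t) (hx : InD t x) (ha : InD t a) (hb : InD t b) (e : (a * b) ^ 2 = t)
    (i : x * (a * b) * x = b * a) (n : NZ t x a) (n' : NZ t x b) : x = a ∨ x = t * a ∨ x = b ∨ x = t * b := by
  have w := swap_D ht ha hb e
  have k : ∀ c, c = t * x → x = t * c := fun c f => by rw [f, ← mul_assoc, ht.sq, one_mul]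
  rcases fac0 ht hx ha hb e i n with f | f | f
  · exact .inl f.symm
  · exact .inr (.inl (k _ f))
  rcases fac0 ht hx hb (ha.mul ht) (w.symm ▸ e) (by
    rw [w, i, ← mul_right_inj t, ← mul_assoc, hb.comm ht, mul_assoc, w, mul_assoc, ← mul_assoc, ht.sq, one_mul]) n'
    with g | g | g
  · exact .inr (.inr (.inl g.symm))
  · exact .inr (.inr (.inr (k _ g)))
  rw [show x * b = x * a * (a * b) by rw [mul_assoc, ← mul_assoc a, ha.1.sq, one_mul],
    (comm_inv hx.1 ha.1 hb.1 i).mul_pow, f, e, ht.sq] at g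
  exact absurd g.symm ht.ne_one

theorem nz_of (ht : IX t) (hx : InD t x) (hy : InD t y) (ha : InD t a) (hb : InD t b) (e : (x * y) ^ 2 = t)
    (f : x * y = a * b) : NZ t x a := by
  have w : x * a = y * b := by
    rw [← mul_left_inj a, mul_assoc, ha.1.sq, mul_one, mul_assoc, ← hb.1.inv, ← ha.1.inv, ← mul_inv_rev, ← f,
      mul_inv_rev, mul_inv_cancel_left, hx.1.inv]
  refine ⟨fun z => not_inQ ht e (inQ_of_mul hx.1 ha.1 z) (w ▸ inQ_of_mul hy.1 hb.1 (w ▸ z)), fun z => ?_,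
    fun z => not_inQ ht e (inQ_sq hx.1 ha.1 z).1 (w ▸ (inQ_sq hy.1 hb.1 (w ▸ z)).1)⟩
  have w' : t * x * a = t * y * b := by rw [mul_assoc, w, mul_assoc]
  exact not_inQ ht (x := t * x) (y := t * y) (by
    rw [hx.comm ht, mul_assoc, ← mul_assoc t, ht.sq, one_mul, e]) (inQ_of_mul hx.2 ha.1 z)
    (w' ▸ inQ_of_mul hy.2 hb.1 (w' ▸ z))

theorem fac (ht : IX t) (hx : InD t x) (hy : InD t y) (ha : InD t a) (hb : InD t b) (e : (a * b) ^ 2 = t)
    (f : x * y = a * b) : x = a ∨ x = t * a ∨ x = b ∨ x = t * b :=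
  fac1 ht hx ha hb e (by
    rw [← f, ← mul_assoc, hx.1.sq, one_mul, ← hb.1.inv, ← ha.1.inv, ← mul_inv_rev, ← f, mul_inv_rev, hx.1.inv,
      hy.1.inv]) (nz_of ht hx hy ha hb (f ▸ e) f)
    (nz_of ht hx hy hb (ha.mul ht) (f ▸ e) (f.trans (swap_D ht ha hb e).symm))

theorem inD_of_sq (ha : IX a) (hb : IX b) (e : (a * b) ^ 2 = t) : InD t a ∧ InD t b :=
  ⟨⟨ha, by rw [← e, pow_two]; simpa [cj_apply, ha.inv, hb.inv, mul_assoc] using ha.conj (a * b)⟩, hb, by
    rw [← e, pow_two, mul_assoc, mul_assoc a b b, hb.sq, mul_one]; simpa [cj_apply, ha.inv] using hb.conj a⟩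

theorem cj_fac (ht : IX t) (ha : InD t a) (hb : InD t b) (e : (a * b) ^ 2 = t) (h0 : cj h t = t)
    (f : cj h (a * b) = a * b ∨ cj h (a * b) = t * (a * b)) :
    cj h a = a ∨ cj h a = t * a ∨ cj h a = b ∨ cj h a = t * b := by
  have a' : InD t (cj h a) := h0 ▸ ha.conj h
  have b' : InD t (cj h b) := h0 ▸ hb.conj h
  rcases f with f | f
  · exact fac ht a' b' ha hb e ((map_mul _ _ _).symm.trans f)
  · exact fac ht a' (b'.mul ht) ha hb e (by
      rw [← mul_assoc, ← a'.comm ht, mul_assoc, ← map_mul, f, ← mul_assoc, ht.sq, one_mul])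

theorem cj_swap (ht : IX t) (ha : InD t a) (hb : InD t b) (e : (a * b) ^ 2 = t) (h0 : cj h t = t)
    (f : cj h (a * b) = a * b ∨ cj h (a * b) = t * (a * b)) :
    cj h b = b ∨ cj h b = t * b ∨ cj h b = t * a ∨ cj h b = a := by
  have w := swap_D ht ha hb e
  simpa only [← mul_assoc, ht.sq, one_mul] using cj_fac ht hb (ha.mul ht) (w.symm ▸ e) h0 (w.symm ▸ f)

theorem cj_four (ht : IX t) (ha : InD t a) (hb : InD t b) (e : (a * b) ^ 2 = t) (h0 : cj h t = t)
    (f : cj h (a * b) = a * b ∨ cj h (a * b) = t * (a * b)) : cj (h ^ 4) a = a := by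
  have k : ∀ g, cj g t = t → cj g a = a ∨ cj g a = t * a → cj (g * g) a = a := fun g g0 f => by
    rw [cj_mul]
    rcases f with f | f <;> rw [f]
    · exact f
    · rw [map_mul, g0, f, ← mul_assoc, ht.sq, one_mul]
  have h2 : cj (h * h) t = t := by rw [cj_mul, h0, h0]
  rw [show h ^ 4 = h * h * (h * h) by simp only [pow_succ, pow_zero, one_mul, mul_assoc]]
  refine k _ h2 ?_
  have A := cj_fac ht ha hb e h0 f
  have B := cj_swap ht ha hb e h0 f
  have n : (cj h a * cj h b) ^ 2 = t := by rw [← map_mul, ← map_pow, e, h0]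
  have n1 := ht.ne_one
  have c := hb.comm ht
  rcases A with A | A | A | A
  · exact .inl (k _ h0 (.inl A))
  · exact .inl (k _ h0 (.inr A))
  all_goals
    rw [cj_mul, A]
    rcases B with B | B | B | B <;> rw [A, B] at n
  · rw [hb.1.sq, one_pow] at n; exact absurd n.symm n1
  · rw [c, ← mul_assoc, hb.1.sq, one_mul, pow_two, ht.sq] at n; exact absurd n.symm n1
  · exact .inr B
  · exact .inl B
  · rw [mul_assoc, hb.1.sq, mul_one, pow_two, ht.sq] at n; exact absurd n.symm n1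
  · rw [hb.2.sq, one_pow] at n; exact absurd n.symm n1
  · exact .inl (by rw [map_mul, h0, B, ← mul_assoc, ht.sq, one_mul])
  · exact .inr (by rw [map_mul, h0, B])

end H71.KS
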