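import Cfsg.Agent.Lib.ChevAut.FoldMat
import Cfsg.Agent.Lib.Twist.E6Mat
import Cfsg.Agent.Lib.Chev.Fix

/-! The field automorphism of order two of `²E₆(2)` has fixed group `F₄(2)`. -/

set_option autoImplicit false
open Cfsg Cfsg.Lie Subgroup H38 H39 H61

namespace H71.KS

/-- restriction of an involutory automorphism -/
theorem exists_restrict {G A : Type*} [Group G] [Group A] (j : A →* G) (hj : Function.Injective j) (Φ : G ≃* G)
    (h : ∀ a, ∃ b, j b = Φ (j a)) (h2 : ∀ g, Φ (Φ g) = g) : ∃ σ : MulAut A, σ * σ = 1 ∧ ∀ a, j (σ a) = Φ (j a) := by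
  choose f hf using h
  have i : ∀ a, f (f a) = a := fun a => hj (by rw [hf, hf, h2])
  exact ⟨⟨⟨f, f, i, i⟩, fun a b => hj (by simp only [map_mul, hf])⟩, MulEquiv.ext i, hf⟩

theorem exists_sigma {K : Type*} [Field K] [Fintype K] (hK : Fintype.card K = 4) :
    ∃ (σ : MulAut (twistedE6 K 2)) (ι : chevF4.group (ZMod 2) →* twistedE6 K 2), σ * σ = 1 ∧
      Function.Injective ι ∧ ∀ g, σ g = g ↔ g ∈ ι.range := by
  obtain ⟨R, E, hE, T, hT, hΓ⟩ := exists_E6 (K := K) (q := 2) Nat.prime_two.isPrimePow hK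
  obtain ⟨E0, hE0⟩ := (matFacts (D := chevE6) (by simp) (ZMod 2)).exists_isMat R
  have : CharP K 2 := charP_of_card_eq_prime_pow (p := 2) (f := 2) hK
  have T6 := H37.tab (D := chevE6) (by simp)
  obtain ⟨α, hα⟩ : ∃ α, Pinned hE0.grp α flipE6 1 fun _ => RingEquiv.refl (ZMod 2) := by
    obtain ⟨α, hα⟩ := H37.exists_graph_simple (RingEquiv.refl (ZMod 2)) (chevE6, [5, 1, 4, 3, 2, 0]) (by simp)
    have e0 : ∀ i : Fin chevE6.rank, ([5, 1, 4, 3, 2, 0] : List ℕ).getD i 0 = (flipE6 i : ℕ) := by decide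
    refine ⟨α, pinned_of_mat hE0 fun g i t => ?_⟩
    have := hα g i t i.2
    dsimp only at this
    rwa [e0 i] at this
  obtain ⟨e⟩ := fold_F4 hE0 hα
  let c := ZMod.castHom (dvd_refl 2) K
  let m := mapG T6 c
  let fr := T.φ ⟨0, by decide⟩
  let Φ := fieldAut T6 fr
  have hfr : ∀ t, fr t = t ^ 2 := hT.hφ _
  have hx : ∀ r t, Φ (hE.grp.x r t) = hE.grp.x r (t ^ 2) := fun r t => hfr t ▸ fieldAut_x hE T6 fr r t
  have mx := mapG_x T6 c hE0 hE
  have c2 : ∀ u, c u ^ 2 = c u := fun u => by rw [← map_pow, ZMod.pow_card]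
  have h4 : ∀ t : K, (t ^ 2) ^ 2 = t := fun t => by
    rw [← pow_mul, show 2 * 2 = Fintype.card K from hK.symm, FiniteField.pow_card]
  have ρ : ∀ i, T.ρ i = flipE6 i := by rw [hT.hρ]; decide
  have φ : ∀ i t, T.φ i t = t ^ 2 := hT.hφ
  have a1 : ∀ g, T.σ (Φ g) = Φ (T.σ g) := DFunLike.congr_fun (hom_ext_simple hE.grp_top
    (φ := T.σ.toMonoidHom.comp Φ.toMonoidHom) (ψ := Φ.toMonoidHom.comp T.σ.toMonoidHom)
    (fun i t => by simp [hx, T.σ_pos, φ]) fun i t => by simp [hx, T.σ_neg, φ])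
  have a2 : ∀ g, Φ (Φ g) = g := DFunLike.congr_fun (hom_ext_simple hE.grp_top
    (φ := Φ.toMonoidHom.comp Φ.toMonoidHom) (ψ := MonoidHom.id _)
    (fun i t => by simp [hx, h4]) fun i t => by simp [hx, h4])
  have a3 : ∀ y, T.σ (m y) = m (α y) := DFunLike.congr_fun (hom_ext_simple hE0.grp_top
    (φ := T.σ.toMonoidHom.comp m) (ψ := m.comp α.toMonoidHom)
    (fun i t => by simp [m, mx, T.σ_pos, φ, hα.pos, c2, ρ]) fun i t => by
      simp [m, mx, T.σ_neg, φ, hα.neg, c2, ρ])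
  have a4 : ∀ y, Φ (m y) = m y := DFunLike.congr_fun (hom_ext_simple hE0.grp_top
    (φ := Φ.toMonoidHom.comp m) (ψ := m)
    (fun i t => by simp [m, mx, hx, c2]) fun i t => by simp [m, mx, hx, c2])
  have a5 : ∀ g, Φ g = g → g ∈ m.range := fun g hg => by
    have F : hE.grp.IsField Φ.toMonoidHom (fr : K →+* K) := fieldAut_x hE T6 fr
    obtain ⟨a, ha, k, hk, e, rfl⟩ := F.exists_mul_H hE.grp_faith (hE.grp_top ▸ mem_top g) hg
    have : ∀ k ∈ hE.grp.H, Φ k = k * k := fun k hk => by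
      induction hk using closure_induction with
      | mem k hk =>
        obtain ⟨r, t, ht, rfl⟩ := hk
        exact (F.h r t).trans ((congrArg _ ((hfr t).trans (sq t))).trans
          (map_mul (hE.grp_R3.hHom r) (Units.mk0 t ht) (Units.mk0 t ht)))
      | one => simp
      | mul a b ha hb ia ib => rw [map_mul, ia, ib, (Elts.H_comm hE.grp_R3 ha hb).mul_mul_mul_comm]
      | inv a ha ia => rw [map_inv, ia, mul_inv_rev]
    obtain rfl : k = 1 := mul_eq_left.1 ((this k hk).symm.trans e)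
    rw [mul_one]
    refine (hE.grp.XA_le.2 fun r _ t ht => ?_) ha
    have : t * (t - 1) = 0 := by linear_combination (hfr t).symm.trans ht
    rcases mul_eq_zero.1 this with h | h
    · exact ⟨_, (mx r 0).trans (by rw [h, map_zero])⟩
    · exact ⟨_, (mx r 1).trans (by rw [sub_eq_zero.1 h, map_one])⟩
  have le : twistedE6 K 2 ≤ chevE6.group K := hΓ.le.trans (map_subtype_le _)
  have mem : ∀ g : chevE6.group K, g.1 ∈ twistedE6 K 2 ↔ T.σ g = g := fun g => by
    rw [hΓ, ← T.mem_Γ]; exact mem_map_iff_mem (subtype_injective _)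
  obtain ⟨σ, s1, s2⟩ := exists_restrict (inclusion le) (inclusion_injective le) Φ
    (fun a => ⟨⟨_, (mem _).2 (by rw [a1, (mem (inclusion le a)).1 a.2])⟩, rfl⟩) a2
  let ι := (((chevE6.group K).subtype.comp m).comp ((fixedSubgroup α).subtype.comp e.symm.toMonoidHom)).codRestrict
    (twistedE6 K 2) fun y => (mem _).2 ((a3 _).trans (congrArg m (e.symm y).2))
  refine ⟨σ, ι, s1, fun x y h => e.symm.injective (Subtype.ext (mapG_injective T6 c
    (Subtype.ext (congrArg (fun g : twistedE6 K 2 => g.1) h)))), fun g => ⟨fun h => ?_, ?_⟩⟩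
  · obtain ⟨y, hy⟩ := a5 _ ((s2 g).symm.trans (congrArg _ h))
    have : α y = y := mapG_injective T6 c ((a3 y).symm.trans (by rw [hy]; exact (mem _).1 g.2))
    exact ⟨e ⟨y, this⟩, Subtype.ext (by simpa [ι] using congrArg Subtype.val hy)⟩
  · rintro ⟨y, rfl⟩
    exact inclusion_injective le ((s2 _).trans (a4 _))

end H71.KS
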